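import Cfsg.Agent.Lib.KnownSimple.J3Lab.IsoD

/-! The isotropic vectors: checks. -/

set_option autoImplicit false
set_option maxRecDepth 100000

namespace Cfsg.Agent.Lib.KnownSimple.J3Lab

open Cfsg.Agent.Lib.KnownSimple.Lab Cfsg.Agent.Lib.KnownSimple.LabPack

theorem hIs_c4 : allI hIsF 80000 20000 = true := by decide +kernel
theorem hIs_c5 : allI hIsF 100000 20000 = true := by decide +kernel
theorem hIs_c6 : allI hIsF 120000 20000 = true := by decide +kernel
theorem hIs_c7 : allI hIsF 140000 20000 = true := by decide +kernel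

end Cfsg.Agent.Lib.KnownSimple.J3Lab
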