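import Cfsg.Agent.Lib.KnownSimple.J3Lab.IsoD

/-! The isotropic vectors: checks. -/

set_option autoImplicit false
set_option maxRecDepth 100000

namespace Cfsg.Agent.Lib.KnownSimple.J3Lab

open Cfsg.Agent.Lib.KnownSimple.Lab Cfsg.Agent.Lib.KnownSimple.LabPack

theorem hIs_c8 : allI hIsF 160000 20000 = true := by decide +kernel
theorem hIs_c9 : allI hIsF 180000 20000 = true := by decide +kernel
theorem hIs_c10 : allI hIsF 200000 20000 = true := by decide +kernel
theorem hIs_c11 : allI hIsF 220000 20000 = true := by decide +kernel
theorem hIs_c12 : allI hIsF 240000 20000 = true := by decide +kernel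
theorem hIs_c13 : allI hIsF 260000 2144 = true := by decide +kernel

end Cfsg.Agent.Lib.KnownSimple.J3Lab
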