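import Cfsg.Agent.Lib.KnownSimple.J3Lab.IsoM
import Cfsg.Agent.Lib.KnownSimple.J3Lab.IsoC0
import Cfsg.Agent.Lib.KnownSimple.J3Lab.IsoC1
import Cfsg.Agent.Lib.KnownSimple.J3Lab.IsoC2

/-! The orbits of the triple cover of the third Janko group on lines: the conclusion. -/

set_option autoImplicit false
set_option maxRecDepth 100000

namespace Cfsg.Agent.Lib.KnownSimple.J3Lab

open Cfsg.Agent.Lib.KnownSimple.Lab Cfsg.Agent.Lib.KnownSimple.LabField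
open Cfsg.Agent.Lib.KnownSimple.LabVec Cfsg.Agent.Lib.KnownSimple.LabChev Cfsg.Agent.Lib.KnownSimple.LabPack Cfsg.Spor
open Cfsg.Agent.Lib.KnownSimple.LabLevels Cfsg.Agent.Lib.KnownSimple.LabJ3
open scoped Matrix

theorem hIs_u0 : ∀ i, i < 20000 → hIsF i = true :=
  allI_join allI_start hIs_c0 rfl
theorem hIs_u1 : ∀ i, i < 40000 → hIsF i = true :=
  allI_join hIs_u0 hIs_c1 rfl
theorem hIs_u2 : ∀ i, i < 60000 → hIsF i = true :=
  allI_join hIs_u1 hIs_c2 rfl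
theorem hIs_u3 : ∀ i, i < 80000 → hIsF i = true :=
  allI_join hIs_u2 hIs_c3 rfl
theorem hIs_u4 : ∀ i, i < 100000 → hIsF i = true :=
  allI_join hIs_u3 hIs_c4 rfl
theorem hIs_u5 : ∀ i, i < 120000 → hIsF i = true :=
  allI_join hIs_u4 hIs_c5 rfl
theorem hIs_u6 : ∀ i, i < 140000 → hIsF i = true :=
  allI_join hIs_u5 hIs_c6 rfl
theorem hIs_u7 : ∀ i, i < 160000 → hIsF i = true :=
  allI_join hIs_u6 hIs_c7 rfl
theorem hIs_u8 : ∀ i, i < 180000 → hIsF i = true :=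
  allI_join hIs_u7 hIs_c8 rfl
theorem hIs_u9 : ∀ i, i < 200000 → hIsF i = true :=
  allI_join hIs_u8 hIs_c9 rfl
theorem hIs_u10 : ∀ i, i < 220000 → hIsF i = true :=
  allI_join hIs_u9 hIs_c10 rfl
theorem hIs_u11 : ∀ i, i < 240000 → hIsF i = true :=
  allI_join hIs_u10 hIs_c11 rfl
theorem hIs_u12 : ∀ i, i < 260000 → hIsF i = true :=
  allI_join hIs_u11 hIs_c12 rfl
theorem hIs_u13 : ∀ i, i < 262144 → hIsF i = true :=
  allI_join hIs_u12 hIs_c13 rfl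
theorem hIs : ∀ i, i < 262144 → hIsF i = true := hIs_u13

/-- The orbits on lines. -/
theorem iso_result (F : Type) [Field F] [Fintype F] (hF : Fintype.card F = 4) (ω : F) (hω : ω ^ 2 + ω + 1 = 0) :
    {L : Submodule F (F9 → F) | ∃ g ∈ threeJ3 F ω,
      L = Submodule.span F {((g : Matrix F9 F9 F) *ᵥ (Pi.single (0 : F9) (1 : F) : F9 → F))}}.ncard = 23256 ∧
    ∀ v w : F9 → F, v ≠ 0 → w ≠ 0 → ∑ z, (v z) ^ 3 = 0 → ∑ z, (w z) ^ 3 = 0 →
      ∃ g ∈ threeJ3 F ω, ∃ c : F, c ≠ 0 ∧ (g : Matrix F9 F9 F) *ᵥ v = c • w := by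
  obtain ⟨S⟩ := exists_R4 hF hω
  obtain ⟨γ, hX, hI⟩ := Rp.exists_letters S
  exact ⟨IsoL.lines_count hX hI hF, fun v w hv hw hi hj => IsoL.iso_orbit hX hF hω hIs v w hv hw hi hj⟩

end Cfsg.Agent.Lib.KnownSimple.J3Lab
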